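import Cfsg.Agent.H115.HC.RankTwo
import Cfsg.Agent.H526.Van.Tool
import Cfsg.Agent.H53.DZ.Van

/-!
# Irreducible characters from rank one Levi subgroups, with the vanishing (S4555, S4559, helper928)

* `exists_HT_node` : a character of Harish-Chandra type `{i}`;
* `exists_van_inv` : an irreducible character vanishing off the conjugates of `P_i`, from an element of the torus
  centralising `M_i` and inverted by the representatives of the elements fixing `α_i`;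
* `exists_van_G2` : the same for type `G₂`.
-/

set_option autoImplicit false
set_option linter.unusedSectionVars false

open scoped ComplexConjugate Pointwise
open Cfsg

namespace Cfsg.Agent.H928.Van

open Cfsg.Agent.OddOrderCharacters.Clifford Cfsg.Agent.Characters Cfsg.Agent.H53.HC
open CoxeterSystem Cfsg.Agent.ChevalleyStructure.CoxeterGeom Cfsg.Agent.Tits.Roots Cfsg.Agent.Tits.Core
  Cfsg.Agent.Tits.Exchange Cfsg.Agent.Nodes.Reps Cfsg.Agent.Nodes.BNOf Cfsg.Agent.Nodes.StabComb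
  Cfsg.Agent.Nodes.Bruhat Cfsg.Agent.Nodes.OppDec Cfsg.Agent.Nodes.LeviDec
open Cfsg.Agent.H115.HC

section gen

variable {I W Y : Type*} [Fintype I] [DecidableEq I] [Group W] [Group Y] {M : CoxeterMatrix I}
  {cs : CoxeterSystem M W} {A : I → I → ℤ} {h : IsCartan M A} {p : ℕ} {T : Subgroup Y} {n : I → Y}
  {X : (I → ℤ) → Subgroup Y}

variable (R : RGD cs h p T n X)

include R

/-- **Characters of Harish-Chandra type `{i}`.** -/
theorem exists_HT_node [Finite W] [Finite Y] (hG : GG cs h T X = ⊤) (hTc : ∀ a ∈ T, ∀ b ∈ T, a * b = b * a) (i : I)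
    (hU : 2 ≤ Nat.card (X (sr i))) : ∃ χ : Y → ℂ, H246.Dl.HT cs h X χ {i} := by
  classical
  have : Fintype Y := Fintype.ofFinite Y
  have : Fintype (PJ cs h T X {i}) := Fintype.ofFinite _
  obtain ⟨ψ, hψ, hc, -⟩ := H115.HC.exists_psi R hTc i hU 1
  obtain ⟨ψ', hψ', hψL, hψV⟩ := exists_infl R {i} hψ
  obtain ⟨χ, hχ, hne⟩ := Cfsg.Agent.CharDeep.PowerDegrees.exists_irr_over (PJ cs h T X {i}) hψ'
  refine ⟨χ, H246.Dl.HT.of_psi R hG {i} hψ' hψV ?_ hχ (H246.Dl.classInner_symm_ne hne)⟩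
  intro k hk hf
  obtain rfl : k = i := hk
  have hf' : Fintype ((X (sr k)).subgroupOf (LJ cs h T X {k})) := Fintype.ofFinite _
  rw [← hc]
  refine Fintype.sum_equiv ((MulEquiv.subgroupCongr (H115.HC.rad_single k)).trans
    (Subgroup.subgroupOfEquivOfLe (H115.HC.X_le_LJ_single (T := T) k)).symm).toEquiv _ _ fun u => ?_
  rw [← hψL]
  rfl

/-- **Harish-Chandra induction from a rank one Levi subgroup**, with the vanishing. -/
theorem exists_van_of_psi [Finite W] [Fintype Y] (hG : GG cs h T X = ⊤) (i : I)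
    {ψ : ↥(LJ cs h T X {i}) → ℂ} (hψ : IsIrrCharacter _ ψ)
    (hc : ∀ [Fintype ((X (sr i)).subgroupOf (LJ cs h T X {i}))],
        ∑ u : (X (sr i)).subgroupOf (LJ cs h T X {i}), ψ u = 0)
    (hs : ∀ w g, Rp cs R.nsys w g → w ∉ WJ cs {i} → rep cs h w (sr i) = sr i →
      ∃ (L : Subgroup Y) (hL : L ≤ LJ cs h T X {i}) (hL' : ∀ l ∈ L, g⁻¹ * l * g ∈ LJ cs h T X {i}),
        ∀ [Fintype L], ∑ l : L, ψ ⟨l, hL l.2⟩ * conj (ψ ⟨g⁻¹ * l * g, hL' l l.2⟩) = 0) :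
    ∃ χ : Y → ℂ, IsIrrCharacter Y χ ∧ ∀ y : Y, (∀ g : Y, g⁻¹ * y * g ∉ PJ cs h T X {i}) → χ y = 0 := by
  classical
  obtain ⟨ψ', hψ', hψL, hψV⟩ := exists_infl R {i} hψ
  refine ⟨indFun (PJ cs h T X {i}) ψ', ?_, fun y hy => H53.DZ.indFun_van _ _ hy⟩
  refine isIrr_indFun_rgd R hG {i} hψ' hψV ?_ ?_
  · intro k hk hf
    obtain rfl : k = i := hk
    have hf' : Fintype ((X (sr k)).subgroupOf (LJ cs h T X {k})) := Fintype.ofFinite _
    rw [← hc]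
    refine Fintype.sum_equiv ((MulEquiv.subgroupCongr (H115.HC.rad_single k)).trans
      (Subgroup.subgroupOfEquivOfLe (H115.HC.X_le_LJ_single (T := T) k)).symm).toEquiv _ _ fun u => ?_
    rw [← hψL]
    rfl
  · intro w g hg hw hp
    have hwi : rep cs h w (sr i) = sr i := by
      obtain ⟨k, hk, e⟩ := hp.2 i (Set.mem_singleton i)
      rw [e, Set.mem_singleton_iff.1 hk]
    obtain ⟨L, hL, hL', hsum⟩ := hs w g hg hw hwi
    refine ⟨L, le_trans hL LJ_le_PJ, fun l hl => LJ_le_PJ (hL' l hl), ?_⟩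
    intro hf
    rw [← hsum]
    refine Finset.sum_congr rfl fun l _ => ?_
    rw [hψL _ (hL l.2), hψL _ (hL' l l.2)]

/-- **An element of the torus centralising `M_i` and inverted by the relevant elements.** -/
theorem exists_van_inv [Finite W] [Finite Y] (hG : GG cs h T X = ⊤) (hTc : ∀ a ∈ T, ∀ b ∈ T, a * b = b * a) (i : I)
    (hU : 2 ≤ Nat.card (X (sr i))) {z : Y} (hz : z ∈ CT T X i) (hz2 : z * z ≠ 1)
    (hinv : ∀ w g, Rp cs R.nsys w g → w ∉ WJ cs {i} → rep cs h w (sr i) = sr i → g⁻¹ * z * g = z⁻¹) :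
    ∃ χ : Y → ℂ, IsIrrCharacter Y χ ∧ ∀ y : Y, (∀ g : Y, g⁻¹ * y * g ∉ PJ cs h T X {i}) → χ y = 0 := by
  classical
  have := Fintype.ofFinite Y
  obtain ⟨f, hf⟩ := exists_hom_ne_one hTc (T.mul_mem (CT_le hz) (CT_le hz)) hz2
  obtain ⟨ψ, hψ, hψc, hψz⟩ := H115.HC.exists_psi R hTc i hU f
  refine exists_van_of_psi R hG i hψ hψc ?_
  intro w g hg hw hwi
  refine ⟨CT T X i, le_trans CT_le T_le_LJ, fun l hl => T_le_LJ (CT_le (conj_mem_CT R hg hwi hl)), ?_⟩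
  intro hfin
  let g1 : CT T X i →* ℂˣ := f.comp (Subgroup.inclusion CT_le)
  let g2 : CT T X i →* ℂˣ := f.comp
    { toFun := fun z => ⟨g⁻¹ * z * g, CT_le (conj_mem_CT R hg hwi z.2)⟩
      map_one' := Subtype.ext (by simp)
      map_mul' := fun a b => Subtype.ext (by
        change g⁻¹ * (a * b) * g = (g⁻¹ * a * g) * (g⁻¹ * b * g)
        group) }
  have h1 : ∀ l : CT T X i, ψ ⟨l, T_le_LJ (CT_le l.2)⟩ *
      conj (ψ ⟨g⁻¹ * l * g, T_le_LJ (CT_le (conj_mem_CT R hg hwi l.2))⟩) =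
      (ψ 1 * conj (ψ 1)) * ((g1 l : ℂ) * conj (g2 l : ℂ)) := by
    intro l
    rw [hψz l l.2, hψz _ (conj_mem_CT R hg hwi l.2), map_mul]
    change (g1 l : ℂ) * ψ 1 * (conj (g2 l : ℂ) * conj (ψ 1)) = _
    ring
  rw [Finset.sum_congr rfl fun l _ => h1 l, ← Finset.mul_sum, sum_conj_hom g1 g2, mul_zero]
  refine ⟨⟨z, hz⟩, fun he => hf ?_⟩
  have h1 : f ⟨z * z, T.mul_mem (CT_le hz) (CT_le hz)⟩ = f ⟨z, CT_le hz⟩ * f ⟨z, CT_le hz⟩ := by
    rw [← map_mul]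
    rfl
  have h2 : f ⟨g⁻¹ * z * g, CT_le (conj_mem_CT R hg hwi hz)⟩ = (f ⟨z, CT_le hz⟩)⁻¹ := by
    rw [← map_inv]
    congr 1
    exact Subtype.ext (hinv w g hg hw hwi)
  change f ⟨z, CT_le hz⟩ = f ⟨g⁻¹ * z * g, CT_le (conj_mem_CT R hg hwi hz)⟩ at he
  rw [h2] at he
  rw [h1]
  exact mul_eq_one_iff_eq_inv.2 he

/-- **Elliptic elements of minimal parabolic subgroups**: the order of `x` does not divide the exponent of `T`. -/
theorem ell_node [Finite W] [Finite Y] [Fact p.Prime] {i : I} {x : Y} (hx : x ∈ PJ cs h T X {i}) {k : ℕ}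
    (hT : ∀ t ∈ T, t ^ k = 1) (hp : ¬ p ∣ orderOf x) (hk : ¬ orderOf x ∣ k) : H40.PV.Ell cs h T X {i} x := by
  refine ⟨hx, fun g _ K' hK' hg' => ?_⟩
  by_contra hne
  have hK0 : K' = ∅ := by
    rcases Set.subset_singleton_iff_eq.1 hK' with h1 | h1
    · exact h1
    · exact absurd h1 hne
  subst hK0
  apply hk
  have h1 : orderOf (g⁻¹ * x * g) = orderOf x := by
    have h2 := MulEquiv.orderOf_eq (MulAut.conj g⁻¹) x
    rw [MulAut.conj_apply, inv_inv] at h2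
    exact h2
  rw [← h1] at hp ⊢
  set y := g⁻¹ * x * g with hy
  clear_value y
  obtain ⟨π, hπL, hπV⟩ := exists_projL R (∅ : Set I)
  obtain ⟨l, hl, v, hv, e⟩ := (mem_PJ R).1 (show y ^ k ∈ PJ cs h T X ∅ from pow_mem hg' k)
  have h3 : π ⟨y ^ k, pow_mem hg' k⟩ = ⟨l, hl⟩ := by
    have e2 : (⟨y ^ k, pow_mem hg' k⟩ : PJ cs h T X ∅) = ⟨l, LJ_le_PJ hl⟩ * ⟨v, VJ_le_PJ hv⟩ := Subtype.ext e
    rw [e2, map_mul, hπL, hπV v hv, mul_one]
  have h4 : π ⟨y ^ k, pow_mem hg' k⟩ = 1 := by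
    have e2 : (⟨y ^ k, pow_mem hg' k⟩ : PJ cs h T X ∅) = ⟨y, hg'⟩ ^ k := rfl
    rw [e2, map_pow]
    apply Subtype.ext
    have h5 : ((π ⟨y, hg'⟩ : LJ cs h T X ∅) : Y) ∈ T :=
      le_of_eq H115.HC.LJ_empty (π ⟨y, hg'⟩).2
    exact hT _ h5
  have hl1 : l = 1 := by
    rw [h3] at h4
    exact congrArg Subtype.val h4
  rw [hl1, one_mul] at e
  have hvU : v ∈ RGD.Sup X (RGD.Pos cs h) := VJ_le_U ∅ hv
  obtain ⟨j, hj⟩ := R.isPGroup_Upos ⟨v, hvU⟩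
  have hj' : v ^ p ^ j = 1 := congrArg Subtype.val hj
  rw [← e, ← pow_mul] at hj'
  have h5 := orderOf_dvd_of_pow_eq_one hj'
  exact (((Nat.Prime.coprime_iff_not_dvd Fact.out).2 hp).symm.pow_right j).dvd_of_dvd_mul_right h5

end gen

section G2

variable {W Y : Type*} [Group W] [Group Y] {M : CoxeterMatrix (Fin 2)}
  {cs : CoxeterSystem M W} {A : Fin 2 → Fin 2 → ℤ} {h : IsCartan M A} {p : ℕ} {T : Subgroup Y} {n : Fin 2 → Y}
  {X : (Fin 2 → ℤ) → Subgroup Y}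

variable (R : RGD cs h p T n X)

include R

/-- **Irreducible characters for type `G₂`**, with the vanishing. -/
theorem exists_van_G2 [Finite W] [Finite Y] (hG : GG cs h T X = ⊤) (hTc : ∀ a ∈ T, ∀ b ∈ T, a * b = b * a)
    (hA : A 0 1 * A 1 0 = 3) (hU : 2 ≤ Nat.card (X (sr 0))) {a : Y} (ha : a ∈ T) (ha2 : a * a ≠ 1)
    (hinv : (n 1)⁻¹ * a * n 1 = a⁻¹) (hc : ∀ u ∈ X ![2, -A 1 0], a * u = u * a)
    (hc' : ∀ u ∈ X (-![2, -A 1 0]), a * u = u * a) :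
    ∃ χ : Y → ℂ, IsIrrCharacter Y χ ∧ ∀ y : Y, (∀ g : Y, g⁻¹ * y * g ∉ PJ cs h T X {0}) → χ y = 0 := by
  have hm : Rp cs R.nsys (cs.simple 1 * cs.simple 0) (n 1 * n 0) :=
    (rp_simple cs R.nsys 1).mul (rp_simple cs R.nsys 0)
  have hy : ∀ u ∈ X (sr 0), (n 1 * n 0)⁻¹ * u * (n 1 * n 0) ∈ X ![2, -A 1 0] := by
    intro u hu
    have := R.conj_mem' hm (isRoot_sr cs h 0) hu
    rwa [rep_inv_zero hA] at this
  have hy' : ∀ u ∈ X (-sr 0), (n 1 * n 0)⁻¹ * u * (n 1 * n 0) ∈ X (-![2, -A 1 0]) := by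
    intro u hu
    have := R.conj_mem' hm (isRoot_sr cs h 0).neg hu
    rwa [map_neg, rep_inv_zero hA] at this
  have hzT : (n 1 * n 0) * a * (n 1 * n 0)⁻¹ ∈ T := by
    have h1 := (mem_normalizer_iff_cj.1 hm.mem_normalizer)
    have h2 : (n 1 * n 0) * a * (n 1 * n 0)⁻¹ ∈ cj (n 1 * n 0) T := conj_mem_cj.2 ha
    rwa [h1] at h2
  have hconj : ∀ u, a * ((n 1 * n 0)⁻¹ * u * (n 1 * n 0)) = ((n 1 * n 0)⁻¹ * u * (n 1 * n 0)) * a →
      (n 1 * n 0) * a * (n 1 * n 0)⁻¹ * u = u * ((n 1 * n 0) * a * (n 1 * n 0)⁻¹) := by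
    intro u hu
    calc (n 1 * n 0) * a * (n 1 * n 0)⁻¹ * u =
          (n 1 * n 0) * (a * ((n 1 * n 0)⁻¹ * u * (n 1 * n 0))) * (n 1 * n 0)⁻¹ := by group
      _ = (n 1 * n 0) * (((n 1 * n 0)⁻¹ * u * (n 1 * n 0)) * a) * (n 1 * n 0)⁻¹ := by rw [hu]
      _ = _ := by group
  have hz : (n 1 * n 0) * a * (n 1 * n 0)⁻¹ ∈ CT T X 0 :=
    mem_CT.2 ⟨hzT, fun u hu => hconj u (hc _ (hy u hu)), fun u hu => hconj u (hc' _ (hy' u hu))⟩
  refine exists_van_inv R hG hTc 0 hU hz ?_ ?_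
  · intro h1
    apply ha2
    have h2 : (n 1 * n 0) * (a * a) * (n 1 * n 0)⁻¹ = 1 := by
      rw [← h1]
      group
    rwa [mul_inv_eq_one, mul_eq_left] at h2
  · intro w g hg hw hwi
    have hwv := eq_vv hA hw hwi
    subst hwv
    have hg1 : Rp cs R.nsys (vv cs) ((n 1 * n 0) * n 1 * (n 1 * n 0)⁻¹) :=
      (hm.mul (rp_simple cs R.nsys 1)).mul hm.inv
    have ht := hg1.unique hg
    set m := n 1 * n 0 with hm0
    set t := (m * n 1 * m⁻¹)⁻¹ * g with ht0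
    have e : g = m * n 1 * m⁻¹ * t := by rw [ht0]; group
    have e1 : (m * n 1 * m⁻¹)⁻¹ * (m * a * m⁻¹) * (m * n 1 * m⁻¹) = (m * a * m⁻¹)⁻¹ := by
      calc (m * n 1 * m⁻¹)⁻¹ * (m * a * m⁻¹) * (m * n 1 * m⁻¹) = m * ((n 1)⁻¹ * a * n 1) * m⁻¹ := by group
        _ = _ := by rw [hinv]; group
    have e2 := hTc _ (inv_mem hzT) _ ht
    calc g⁻¹ * (m * a * m⁻¹) * g = t⁻¹ * ((m * n 1 * m⁻¹)⁻¹ * (m * a * m⁻¹) * (m * n 1 * m⁻¹)) * t := by
          rw [e]; group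
      _ = t⁻¹ * ((m * a * m⁻¹)⁻¹ * t) := by rw [e1, mul_assoc]
      _ = t⁻¹ * (t * (m * a * m⁻¹)⁻¹) := by rw [e2]
      _ = _ := by group

end G2

end Cfsg.Agent.H928.Van
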